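import Cfsg.Agent.Eq.Def_KGroupFacts
import Cfsg.Agent.SchurMult.Central

/-!
Central extension of a group by an abelian group twisted by a bimultiplicative map.
-/

set_option autoImplicit false
open scoped commutatorElement

namespace CfsgLib.SchurMult

universe u v

variable {E : Type u} [Group E] {T : Type v} [CommGroup T]

/-- The set `E × T` with multiplication twisted by `B`. -/
@[ext] structure TwistExt (B : E →* E →* T) : Type (max u v) where
  /-- the component in `E` -/
  base : E
  /-- the component in `T` -/
  fib : T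

namespace TwistExt

variable {B : E →* E →* T}

instance instMulTwist : Mul (TwistExt B) := ⟨fun x y => ⟨x.base * y.base, x.fib * y.fib * B x.base y.base⟩⟩
instance instOneTwist : One (TwistExt B) := ⟨⟨1, 1⟩⟩
instance instInvTwist : Inv (TwistExt B) := ⟨fun x => ⟨x.base⁻¹, x.fib⁻¹ * B x.base x.base⟩⟩

@[simp] theorem mul_base (x y : TwistExt B) : (x * y).base = x.base * y.base := rfl
@[simp] theorem mul_fib (x y : TwistExt B) : (x * y).fib = x.fib * y.fib * B x.base y.base := rfl
@[simp] theorem one_base : (1 : TwistExt B).base = 1 := rfl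
@[simp] theorem one_fib : (1 : TwistExt B).fib = 1 := rfl
@[simp] theorem inv_base (x : TwistExt B) : x⁻¹.base = x.base⁻¹ := rfl
@[simp] theorem inv_fib (x : TwistExt B) : x⁻¹.fib = x.fib⁻¹ * B x.base x.base := rfl

instance instGroupTwist : Group (TwistExt B) :=
  Group.ofLeftAxioms
    (fun x y z => TwistExt.ext (mul_assoc _ _ _) (by
      simp [mul_assoc, mul_comm, mul_left_comm]))
    (fun x => TwistExt.ext (one_mul _) (by simp))
    (fun x => TwistExt.ext (inv_mul_cancel _) (by simp [mul_assoc, mul_comm, mul_left_comm]))

variable (B) in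
/-- Forget the fibre. -/
def projTwist : TwistExt B →* E where
  toFun := TwistExt.base
  map_one' := rfl
  map_mul' _ _ := rfl

variable (B) in
theorem projTwist_surjective : Function.Surjective (projTwist B) := fun e => ⟨⟨e, 1⟩, rfl⟩

/-- An element over a central element on which `B` is trivial is central. -/
theorem mem_center {x : TwistExt B} (hx : x.base ∈ Subgroup.center E)
    (h : ∀ e : E, B x.base e = B e x.base) : x ∈ Subgroup.center (TwistExt B) := by
  rw [Subgroup.mem_center_iff]
  intro y
  refine TwistExt.ext (Subgroup.mem_center_iff.1 hx y.base) ?_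
  simp only [mul_fib, h y.base]
  ac_rfl

variable (B) in
theorem projTwist_ker_le_center : (projTwist B).ker ≤ Subgroup.center (TwistExt B) := by
  intro x hx
  have hx' : x.base = 1 := hx
  exact mem_center (hx' ▸ Subgroup.one_mem _) (by simp [hx'])

instance instFiniteTwist [Finite E] [Finite T] : Finite (TwistExt B) :=
  Finite.of_injective (fun x => (x.base, x.fib)) fun _ _ h =>
    TwistExt.ext (congrArg Prod.fst h) (congrArg Prod.snd h)

/-- Commutator of two lifts of commuting elements. -/
theorem commutator_lifts {e e' : E} (h : e * e' = e' * e) :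
    ⁅(⟨e, 1⟩ : TwistExt B), (⟨e', 1⟩ : TwistExt B)⁆ = ⟨1, B e e' * (B e' e)⁻¹⟩ := by
  have hg : e * e' * e⁻¹ = e' := by rw [h, mul_inv_cancel_right]
  refine TwistExt.ext ?_ ?_
  · simp [commutatorElement_def, hg]
  · simp only [commutatorElement_def, mul_fib, mul_base, inv_fib, inv_base, map_mul, map_inv,
      MonoidHom.mul_apply, MonoidHom.inv_apply, one_mul, inv_one]
    apply Eq.symm
    have key : ∀ p q r s : T, p * q⁻¹ = r * (p * (s * (r⁻¹ * (q⁻¹ * s⁻¹)))) := fun p q r s => by
      rw [mul_left_comm r p]
      congr 1
      rw [mul_left_comm s r⁻¹, mul_inv_cancel_left, mul_left_comm s q⁻¹, mul_inv_cancel, mul_one]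
    simp [mul_assoc]

variable (B) in
/-- The kernel of the projection is `T`. -/
def kerEquiv : (projTwist B).ker ≃* T where
  toFun x := x.1.fib
  invFun t := ⟨⟨1, t⟩, rfl⟩
  left_inv x := Subtype.ext (TwistExt.ext x.2.symm rfl)
  right_inv _ := rfl
  map_mul' x y := by
    have hx : (x : TwistExt B).base = 1 := x.2
    simp [hx]

end TwistExt

end CfsgLib.SchurMult
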