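import Cfsg.Agent.SchurMult.Multiplier

/-!
Central extensions of two-generator groups: the commutator subgroup is cyclic when the commutator
of the generators is inverted or fixed by each of them.
-/

set_option autoImplicit false
open scoped commutatorElement

namespace CfsgLib.SchurMult

variable {Γ : Type*} [Group Γ] {Q : Type*} [Group Q]

theorem commutator_le_zpowers_of_two_gen {σ : Γ →* Q} (hc : σ.ker ≤ Subgroup.center Γ) {a b c : Γ}
    (hgen : Subgroup.closure ({σ a, σ b} : Set Q) = ⊤) (hcd : c = b * a * b⁻¹ * a⁻¹)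
    (ha : a * c * a⁻¹ ∈ Subgroup.zpowers c) (ha' : a⁻¹ * c * a ∈ Subgroup.zpowers c)
    (hb : b * c * b⁻¹ ∈ Subgroup.zpowers c) (hb' : b⁻¹ * c * b ∈ Subgroup.zpowers c) :
    commutator Γ ≤ Subgroup.zpowers c := by
  have htop : ∀ T : Subgroup Γ, a ∈ T → b ∈ T → Subgroup.center Γ ≤ T → T = ⊤ := by
    intro T h1 h2 h3
    rw [eq_top_iff]
    intro g _
    have hg : σ g ∈ T.map σ := by
      have hle : Subgroup.closure ({σ a, σ b} : Set Q) ≤ T.map σ := by
        rw [Subgroup.closure_le]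
        rintro _ (rfl | rfl)
        · exact Subgroup.mem_map_of_mem σ h1
        · exact Subgroup.mem_map_of_mem σ h2
      exact hle (hgen ▸ Subgroup.mem_top _)
    obtain ⟨t, ht, htg⟩ := hg
    have hz : t⁻¹ * g ∈ T := h3 (hc (by simp [MonoidHom.mem_ker, htg]))
    simpa using T.mul_mem ht hz
  have hmem : ∀ x : Γ, x * c * x⁻¹ ∈ Subgroup.zpowers c → x⁻¹ * c * x ∈ Subgroup.zpowers c →
      x ∈ Subgroup.normalizer (Subgroup.zpowers c : Set Γ) := by
    intro x h1 h2
    have h1' : ∀ y ∈ Subgroup.zpowers c, x * y * x⁻¹ ∈ Subgroup.zpowers c := by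
      intro y hy
      obtain ⟨k, rfl⟩ := hy
      have : x * c ^ k * x⁻¹ = (x * c * x⁻¹) ^ k := by rw [conj_zpow]
      rw [this]
      exact Subgroup.zpow_mem _ h1 k
    have h2' : ∀ y ∈ Subgroup.zpowers c, x⁻¹ * y * x ∈ Subgroup.zpowers c := by
      intro y hy
      obtain ⟨k, rfl⟩ := hy
      have : x⁻¹ * c ^ k * x = (x⁻¹ * c * x⁻¹⁻¹) ^ k := by rw [conj_zpow, inv_inv]
      rw [this, inv_inv]
      exact Subgroup.zpow_mem _ h2 k
    rw [Subgroup.mem_normalizer_iff]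
    intro y
    refine ⟨h1' y, fun h => ?_⟩
    have := h2' _ h
    simpa [mul_assoc] using this
  have hN : (Subgroup.zpowers c).Normal := by
    rw [← Subgroup.normalizer_eq_top_iff]
    refine htop _ (hmem a ha ha') (hmem b hb hb') (fun z hz => ?_)
    refine hmem z ?_ ?_
    · rw [← Subgroup.mem_center_iff.1 hz c, mul_inv_cancel_right]; exact Subgroup.mem_zpowers c
    · rw [mul_assoc, Subgroup.mem_center_iff.1 hz c, inv_mul_cancel_left]; exact Subgroup.mem_zpowers c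
  let φ := QuotientGroup.mk' (Subgroup.zpowers c)
  have hab : φ b * φ a = φ a * φ b := by
    rw [← commutatorElement_eq_one_iff_mul_comm, commutatorElement_def, ← map_inv, ← map_inv, ← map_mul,
      ← map_mul, ← map_mul]
    exact (QuotientGroup.eq_one_iff _).2 (hcd ▸ Subgroup.mem_zpowers c)
  have hcomm : ∀ x y : Γ, φ x * φ y = φ y * φ x → y ∈ (Subgroup.centralizer {φ x}).comap φ := by
    intro x y h
    rw [Subgroup.mem_comap, Subgroup.mem_centralizer_singleton_iff]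
    exact h.symm
  have hZ : ∀ x : Γ, Subgroup.center Γ ≤ (Subgroup.centralizer {φ x}).comap φ := fun x z hz =>
    hcomm x z (by rw [← map_mul, ← map_mul, Subgroup.mem_center_iff.1 hz x])
  have hall : ∀ x : Γ, (x = a ∨ x = b) → ∀ y : Γ, φ x * φ y = φ y * φ x := by
    intro x hx y
    have hTa : a ∈ (Subgroup.centralizer {φ x}).comap φ := hcomm x a (by
      rcases hx with rfl | rfl
      · rfl
      · exact hab)
    have hTb : b ∈ (Subgroup.centralizer {φ x}).comap φ := hcomm x b (by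
      rcases hx with rfl | rfl
      · exact hab.symm
      · rfl)
    have := htop _ hTa hTb (hZ x) ▸ Subgroup.mem_top y
    rw [Subgroup.mem_comap, Subgroup.mem_centralizer_singleton_iff] at this
    exact this.symm
  rw [commutator_eq_closure, Subgroup.closure_le]
  rintro _ ⟨x, y, rfl⟩
  have hTx : a ∈ (Subgroup.centralizer {φ x}).comap φ := hcomm x a (hall a (Or.inl rfl) x).symm
  have hTy : b ∈ (Subgroup.centralizer {φ x}).comap φ := hcomm x b (hall b (Or.inr rfl) x).symm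
  have h := htop _ hTx hTy (hZ x) ▸ Subgroup.mem_top y
  rw [Subgroup.mem_comap, Subgroup.mem_centralizer_singleton_iff] at h
  rw [SetLike.mem_coe, ← QuotientGroup.eq_one_iff]
  show φ ⁅x, y⁆ = 1
  rw [map_commutatorElement, commutatorElement_eq_one_iff_mul_comm]
  exact h.symm

/-- The dihedral/dicyclic situation: `b` inverts `a` modulo the centre and commutes with `a ^ n`. -/
theorem invert_central_bound {σ : Γ →* Q} (hσ : Cfsg.IsStemExtension σ) {a b : Γ}
    (hgen : Subgroup.closure ({σ a, σ b} : Set Q) = ⊤)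
    (hinv : σ b * σ a * (σ b)⁻¹ = (σ a)⁻¹) {n : ℕ} (hn : b * a ^ n = a ^ n * b) :
    ∃ c : Γ, c ^ n = 1 ∧ σ.ker ≤ Subgroup.zpowers c ∧ σ c = (σ a)⁻¹ * (σ a)⁻¹ := by
  obtain ⟨w, hwc, hw⟩ : ∃ w ∈ Subgroup.center Γ, b * a * b⁻¹ = a⁻¹ * w :=
    ⟨a * (b * a * b⁻¹), hσ.2.1 (by simp [MonoidHom.mem_ker, hinv]), by group⟩
  have hw' : ∀ x, x * w = w * x := Subgroup.mem_center_iff.1 hwc
  let c := b * a * b⁻¹ * a⁻¹
  have hcw : c = w * (a⁻¹ * a⁻¹) := by
    show b * a * b⁻¹ * a⁻¹ = _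
    rw [hw, hw' a⁻¹, mul_assoc]
  have hσc : σ c = (σ a)⁻¹ * (σ a)⁻¹ := by
    show σ (b * a * b⁻¹ * a⁻¹) = _
    simp [hinv]
  have hcn : c ^ n = 1 := by
    have h2 : (a⁻¹ * w) ^ n = a ^ n := by
      rw [← hw, conj_pow, hn, mul_inv_cancel_right]
    rw [Commute.mul_pow (hw' a⁻¹), inv_pow] at h2
    have h3 : w ^ n = a ^ n * a ^ n := by
      calc w ^ n = a ^ n * ((a ^ n)⁻¹ * w ^ n) := by group
        _ = a ^ n * a ^ n := by rw [h2]
    rw [hcw, Commute.mul_pow (hw' _).symm, Commute.mul_pow (Commute.refl a⁻¹), h3, inv_pow]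
    group
  have hca : a * c * a⁻¹ = c := by
    rw [hcw, ← mul_assoc a w, hw' a]
    group
  have hbc : b * c * b⁻¹ = c⁻¹ := by
    have hbw : b * w * b⁻¹ = w := by rw [hw' b, mul_inv_cancel_right]
    calc b * c * b⁻¹ = b * w * b⁻¹ * ((b * a * b⁻¹)⁻¹ * (b * a * b⁻¹)⁻¹) := by rw [hcw]; group
      _ = w * ((a⁻¹ * w)⁻¹ * (a⁻¹ * w)⁻¹) := by rw [hbw, hw]
      _ = a * w⁻¹ * a := by group
      _ = (w * (a⁻¹ * a⁻¹))⁻¹ := by
        have : Commute a w⁻¹ := (Commute.inv_right (hw' a))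
        rw [mul_inv_rev, mul_inv_rev, inv_inv, mul_assoc, mul_assoc, ← this.eq]
      _ = c⁻¹ := by rw [← hcw]
  refine ⟨c, hcn, hσ.2.2.trans (commutator_le_zpowers_of_two_gen hσ.2.1 hgen rfl ?_ ?_ ?_ ?_), hσc⟩
  · exact hca.symm ▸ Subgroup.mem_zpowers c
  · have : a⁻¹ * c * a = c := by
      have h : a⁻¹ * (a * c * a⁻¹) * a = c := by group
      rwa [hca] at h
    exact this.symm ▸ Subgroup.mem_zpowers c
  · rw [hbc]; exact Subgroup.inv_mem _ (Subgroup.mem_zpowers c)
  · have h : b⁻¹ * (b * c * b⁻¹)⁻¹ * b = c⁻¹ := by group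
    rw [hbc, inv_inv] at h
    rw [h]; exact Subgroup.inv_mem _ (Subgroup.mem_zpowers c)

/-- The abelian situation: the commutator of the generators is killed by any exponent of `σ b`. -/
theorem abelian_two_gen_bound {σ : Γ →* Q} (hσ : Cfsg.IsStemExtension σ) {a b : Γ}
    (hgen : Subgroup.closure ({σ a, σ b} : Set Q) = ⊤)
    (hcomm : σ b * σ a * (σ b)⁻¹ = σ a) {n : ℕ} (hn : (σ b) ^ n = 1) :
    ∃ c : Γ, c ^ n = 1 ∧ σ.ker ≤ Subgroup.zpowers c := by
  let c := b * a * b⁻¹ * a⁻¹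
  have hc : c ∈ Subgroup.center Γ := hσ.2.1 (by
    show σ (b * a * b⁻¹ * a⁻¹) = 1
    simp [hcomm])
  have hc' : ∀ x, x * c = c * x := Subgroup.mem_center_iff.1 hc
  have hpow : ∀ k : ℕ, b ^ k * a * (b ^ k)⁻¹ = c ^ k * a := by
    intro k
    induction k with
    | zero => simp
    | succ k ih =>
      calc b ^ (k + 1) * a * (b ^ (k + 1))⁻¹ = b * (b ^ k * a * (b ^ k)⁻¹) * b⁻¹ := by group
        _ = b * (c ^ k * a) * b⁻¹ := by rw [ih]
        _ = c ^ k * (b * a * b⁻¹) := by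
          rw [← mul_assoc b, (Commute.pow_right (hc' b) k).eq]; group
        _ = c ^ k * (c * a) := by
          congr 1
          show b * a * b⁻¹ = b * a * b⁻¹ * a⁻¹ * a
          rw [inv_mul_cancel_right]
        _ = c ^ (k + 1) * a := by rw [pow_succ]; exact (mul_assoc _ _ _).symm

  have hbn : b ^ n ∈ Subgroup.center Γ := hσ.2.1 (by simp [MonoidHom.mem_ker, hn])
  have hcn : c ^ n = 1 := by
    have h := hpow n
    rw [← Subgroup.mem_center_iff.1 hbn a, mul_inv_cancel_right] at h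
    exact mul_eq_right.1 h.symm
  have hfix : ∀ x : Γ, x * c * x⁻¹ = c ∧ x⁻¹ * c * x = c := fun x =>
    ⟨by rw [hc' x, mul_inv_cancel_right], by rw [mul_assoc, ← hc' x, inv_mul_cancel_left]⟩
  refine ⟨c, hcn, hσ.2.2.trans (commutator_le_zpowers_of_two_gen hσ.2.1 hgen rfl ?_ ?_ ?_ ?_)⟩
  all_goals first
    | exact (hfix a).1.symm ▸ Subgroup.mem_zpowers c
    | exact (hfix a).2.symm ▸ Subgroup.mem_zpowers c
    | exact (hfix b).1.symm ▸ Subgroup.mem_zpowers c
    | exact (hfix b).2.symm ▸ Subgroup.mem_zpowers c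

end CfsgLib.SchurMult
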