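import Cfsg.Agent.SchurMult.Lattice

/-!
Restriction and corestriction between the multiplier of a group and that of a subgroup: their
composite is the power map of the index.
-/

set_option autoImplicit false
open scoped commutatorElement

namespace CfsgLib.SchurMult

universe u v w

/-- Maps over `U` carry `ker ∩ commutator` onto `ker ∩ commutator`. -/
theorem map_ker_inf_commutator {E : Type u} {Δ : Type v} {Q : Type w} [Group E] [Group Δ] [Group Q]
    {q : E →* Q} (hq : Function.Surjective q) {τ : Δ →* Q} (hc : τ.ker ≤ Subgroup.center Δ)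
    {φ : E →* Δ} (hφ : τ.comp φ = q) :
    (q.ker ⊓ commutator E).map φ = τ.ker ⊓ commutator Δ := by
  have hmap := map_commutator_eq φ (exists_center_of_over hc hq hφ)
  apply le_antisymm
  · rintro _ ⟨x, hx, rfl⟩
    refine ⟨?_, hmap ▸ Subgroup.mem_map_of_mem φ hx.2⟩
    show τ (φ x) = 1
    exact (DFunLike.congr_fun hφ x).trans hx.1
  · rintro y ⟨hy1, hy2⟩
    rw [← hmap] at hy2
    obtain ⟨x, hx, rfl⟩ := hy2
    exact ⟨x, ⟨(DFunLike.congr_fun hφ x).symm.trans hy1, hx⟩, rfl⟩

/-- A hom between finite abelian groups onto `C` gives an embedding of `C`. -/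
theorem exists_injective_of_surjective {B : Type u} {C : Type v} [CommGroup B] [CommGroup C] [Finite B]
    {π : B →* C} (hπ : Function.Surjective π) : ∃ j : C →* B, Function.Injective j := by
  haveI : Finite C := Finite.of_surjective π hπ
  obtain ⟨eB⟩ := CommGroup.monoidHom_mulEquiv_of_hasEnoughRootsOfUnity B ℂ
  obtain ⟨eC⟩ := CommGroup.monoidHom_mulEquiv_of_hasEnoughRootsOfUnity C ℂ
  let d : (C →* ℂˣ) →* (B →* ℂˣ) := MonoidHom.mk' (fun χ => χ.comp π) (fun χ χ' => rfl)
  have hd : Function.Injective d := fun χ χ' h => MonoidHom.ext fun c => by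
    obtain ⟨b, rfl⟩ := hπ c
    exact DFunLike.congr_fun h b
  exact ⟨eB.toMonoidHom.comp (d.comp eC.symm.toMonoidHom),
    eB.injective.comp (hd.comp eC.symm.injective)⟩

section

variable {G : Type u} [Group G] (U : Subgroup G)

/-- The preimage of `U` in the free group. -/
def preFree : Subgroup (FreeGroup G) := U.comap (tautPres G)

theorem ker_le_preFree : (tautPres G).ker ≤ preFree U := fun x hx => by
  show tautPres G x ∈ U
  rw [MonoidHom.mem_ker.1 hx]
  exact U.one_mem

/-- `[R, F_U]` inside `F_U`. -/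
def preRelComm : Subgroup (preFree U) :=
  ⁅(tautPres G).ker.subgroupOf (preFree U), (⊤ : Subgroup (preFree U))⁆

instance preRelComm_normal : (preRelComm U).Normal :=
  Subgroup.commutator_normal ((tautPres G).ker.subgroupOf (preFree U)) ⊤

/-- `F_U / [R, F_U]`. -/
abbrev PreCentral : Type u := preFree U ⧸ preRelComm U

/-- The projection `F_U / [R, F_U] → U`. -/
def preProj : PreCentral U →* U :=
  QuotientGroup.lift _ (((tautPres G).comp (preFree U).subtype).codRestrict U (fun x => x.2)) (by
    rw [preRelComm, Subgroup.commutator_le]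
    intro a ha b _
    apply Subtype.ext
    show tautPres G (((⁅a, b⁆ : preFree U)) : FreeGroup G) = 1
    have ha' : tautPres G (a : FreeGroup G) = 1 := ha
    simp [commutatorElement_def, ha'])

theorem preProj_surjective : Function.Surjective (preProj U) := by
  rintro ⟨g, hg⟩
  refine ⟨QuotientGroup.mk' _ ⟨FreeGroup.of g, ?_⟩, Subtype.ext ?_⟩
  · show tautPres G (FreeGroup.of g) ∈ U
    simpa [tautPres] using hg
  · show tautPres G (FreeGroup.of g) = g
    simp [tautPres]

theorem preProj_ker_le_center : (preProj U).ker ≤ Subgroup.center (PreCentral U) := by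
  intro x hx
  obtain ⟨r, rfl⟩ := QuotientGroup.mk'_surjective _ x
  have hr : r ∈ (tautPres G).ker.subgroupOf (preFree U) := congrArg Subtype.val hx
  rw [Subgroup.mem_center_iff]
  intro y
  obtain ⟨w, rfl⟩ := QuotientGroup.mk'_surjective _ y
  have h1 : QuotientGroup.mk' (preRelComm U) ⁅r, w⁆ = 1 :=
    (QuotientGroup.eq_one_iff _).2 (Subgroup.commutator_mem_commutator hr (Subgroup.mem_top w))
  rw [map_commutatorElement, commutatorElement_eq_one_iff_mul_comm] at h1
  exact h1.symm

/-- `(R ∩ F_U') / [R, F_U]`. -/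
def preMult : Subgroup (PreCentral U) := (preProj U).ker ⊓ commutator (PreCentral U)

variable [Finite G]

/-- `(R ∩ F_U') / [R, F_U]` is the multiplier of `U`. -/
theorem nonempty_preMult_equiv : Nonempty (preMult U ≃* Mult U) := by
  obtain ⟨a, ha⟩ := exists_surjective_of_hasSchurMultiplier (hasSchurMultiplier_mult (Q := U))
    (preProj_surjective U) (preProj_ker_le_center U)
  obtain ⟨⟨Γ, _, _, σ, hσ, ⟨k⟩⟩, -⟩ := hasSchurMultiplier_mult (Q := U)
  -- lift along freeness of `F_U`
  haveI : IsFreeGroup (preFree U) := inferInstance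
  let pr : preFree U →* U := (preProj U).comp (QuotientGroup.mk' _)
  choose d hd using fun x : IsFreeGroup.Generators (preFree U) => hσ.1 (pr (IsFreeGroup.of x))
  have hlift : σ.comp (IsFreeGroup.lift d) = pr := IsFreeGroup.ext_hom (fun x => by simp [hd])
  let φ : PreCentral U →* Γ := QuotientGroup.lift _ (IsFreeGroup.lift d) (by
    rw [preRelComm, Subgroup.commutator_le]
    intro x hx y _
    have h1 : IsFreeGroup.lift d x ∈ Subgroup.center Γ := hσ.2.1 (by
      rw [MonoidHom.mem_ker]
      have h2 := DFunLike.congr_fun hlift x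
      rw [MonoidHom.comp_apply] at h2
      rw [h2]
      exact Subtype.ext hx)
    rw [MonoidHom.mem_ker, map_commutatorElement, commutatorElement_eq_one_iff_mul_comm]
    exact (Subgroup.mem_center_iff.1 h1 _).symm)
  have hφ : σ.comp φ = preProj U := QuotientGroup.monoidHom_ext _ hlift
  have hm := map_ker_inf_commutator (preProj_surjective U) hσ.2.1 hφ
  rw [inf_eq_left.2 hσ.2.2] at hm
  let b : preMult U →* σ.ker := (φ.comp (preMult U).subtype).codRestrict _
    fun x => hm ▸ Subgroup.mem_map_of_mem φ x.2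
  have hb : Function.Surjective b := by
    rintro ⟨y, hy⟩
    rw [← hm] at hy
    obtain ⟨x, hx, rfl⟩ := hy
    exact ⟨⟨x, hx⟩, rfl⟩
  have ha' : Function.Surjective (fun x => (a x : preMult U)) := ha
  haveI : Finite (preMult U) := Finite.of_surjective _ ha'
  haveI := Fintype.ofFinite (Mult U)
  haveI := Fintype.ofFinite (preMult U)
  have hb' : Function.Surjective (k.toMonoidHom.comp b) := k.surjective.comp hb
  exact ⟨MulEquiv.ofBijective (k.toMonoidHom.comp b) ((Fintype.bijective_iff_surjective_and_card _).2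
    ⟨hb', le_antisymm (Fintype.card_le_of_surjective _ ha') (Fintype.card_le_of_surjective _ hb')⟩)⟩

/-- The inclusion `F_U / [R, F_U] → F / [R, F]`. -/
def preIncl : PreCentral U →* FreeCentral (tautPres G) :=
  QuotientGroup.lift _ ((fcMk (tautPres G)).comp (preFree U).subtype) (by
    rw [preRelComm, Subgroup.commutator_le]
    intro a ha b _
    rw [MonoidHom.mem_ker, map_commutatorElement]
    show ⁅fcMk (tautPres G) (a : FreeGroup G), fcMk (tautPres G) (b : FreeGroup G)⁆ = 1
    rw [← map_commutatorElement]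
    exact (QuotientGroup.eq_one_iff _).2 (Subgroup.commutator_mem_commutator ha (Subgroup.mem_top _)))

/-- Restriction followed by corestriction is the power of the index. -/
theorem exists_res_cores : ∃ (a : Mult G →* Mult U) (b : Mult U →* Mult G),
    ∀ x, b (a x) = x ^ U.index := by
  set f := tautPres G with hfdef
  have hfs : Function.Surjective f := tautPres_surjective G
  set FU := preFree U with hFU
  haveI hfi : FU.FiniteIndex := ⟨by
    rw [hFU, preFree, Subgroup.index_comap_of_surjective _ hfs]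
    exact Subgroup.index_ne_zero_of_finite⟩
  letI : Fintype (FreeGroup G ⧸ FU) := FU.fintypeQuotientOfFiniteIndex
  have hcardq : Fintype.card (FreeGroup G ⧸ FU) = U.index := by
    rw [← Nat.card_eq_fintype_card, ← Subgroup.index, hFU, preFree,
      Subgroup.index_comap_of_surjective _ hfs]
  let K : Subgroup (PreCentral U) := (preProj U).ker
  haveI : IsMulCommutative K :=
    ⟨⟨fun x y => Subtype.ext (Subgroup.mem_center_iff.1 (preProj_ker_le_center U y.2) x.1)⟩⟩
  letI : CommGroup K := { (inferInstance : Group K) with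
    mul_comm := fun x y => IsMulCommutative.is_comm.comm x y }
  -- conjugates of a relation
  have hconjR : ∀ (r : f.ker) (t : FreeGroup G), t⁻¹ * r * t ∈ f.ker := fun r t => by
    simp [MonoidHom.mem_ker, show f (r : FreeGroup G) = 1 from r.2]
  let cj : f.ker → FreeGroup G → K := fun r t =>
    ⟨QuotientGroup.mk' (preRelComm U) ⟨t⁻¹ * r * t, ker_le_preFree U (hconjR r t)⟩, by
      show preProj U _ = 1
      exact Subtype.ext (hconjR r t)⟩
  have hcj_right : ∀ (r : f.ker) (t : FreeGroup G) (w : FreeGroup G), w ∈ FU →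
      cj r (t * w) = cj r t := by
    intro r t w hw
    apply Subtype.ext
    have h1 : (⟨(t * w)⁻¹ * r * (t * w), ker_le_preFree U (hconjR r (t * w))⟩ : preFree U) =
        ⟨w, hw⟩⁻¹ * ⟨t⁻¹ * r * t, ker_le_preFree U (hconjR r t)⟩ * ⟨w, hw⟩ :=
      Subtype.ext (by simp [mul_assoc])
    show QuotientGroup.mk' (preRelComm U) _ = QuotientGroup.mk' (preRelComm U) _
    rw [h1, map_mul, map_mul, map_inv, mul_assoc]
    rw [← Subgroup.mem_center_iff.1 (preProj_ker_le_center U (cj r t).2) _, inv_mul_cancel_left]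
  let v : f.ker →* K := MonoidHom.mk' (fun r => ∏ q : FreeGroup G ⧸ FU, cj r q.out) (fun r s => by
    rw [← Finset.prod_mul_distrib]
    refine Finset.prod_congr rfl fun q _ => Subtype.ext ?_
    show QuotientGroup.mk' (preRelComm U) _ = QuotientGroup.mk' (preRelComm U) _ * _
    rw [← map_mul]
    exact congrArg _ (Subtype.ext (by simp [mul_assoc])))
  have hv_conj : ∀ (r : f.ker) (g : FreeGroup G), v ⟨g * r * g⁻¹, by
      simp [MonoidHom.mem_ker, show f (r : FreeGroup G) = 1 from r.2]⟩ = v r := by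
    intro r g
    refine Fintype.prod_equiv (MulAction.toPerm g⁻¹) _ _ fun q => ?_
    have hw : ((g⁻¹ • q).out)⁻¹ * (g⁻¹ * q.out) ∈ FU := by
      refine QuotientGroup.eq.1 ?_
      rw [QuotientGroup.out_eq']
      conv_lhs => rw [← QuotientGroup.out_eq' q]
      rfl
    have h1 : g⁻¹ * q.out = (g⁻¹ • q).out * (((g⁻¹ • q).out)⁻¹ * (g⁻¹ * q.out)) := by
      rw [mul_inv_cancel_left]
    show _ = cj r (g⁻¹ • q).out
    rw [← hcj_right r (g⁻¹ • q).out _ hw, ← h1]
    apply Subtype.ext
    show QuotientGroup.mk' (preRelComm U) _ = QuotientGroup.mk' (preRelComm U) _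
    refine congrArg _ (Subtype.ext ?_)
    simp [mul_assoc]
  -- it factors through `F / [R, F]`
  let fcR : f.ker →* (proj f).ker := ((fcMk f).comp f.ker.subtype).codRestrict _ fun r => r.2
  have hfcR : Function.Surjective fcR := by
    rintro ⟨x, hx⟩
    obtain ⟨r, rfl⟩ := QuotientGroup.mk'_surjective _ x
    exact ⟨⟨r, hx⟩, rfl⟩
  have hfcker : fcR.ker ≤ v.ker := by
    intro r hr
    have hr' : (r : FreeGroup G) ∈ ⁅f.ker, (⊤ : Subgroup (FreeGroup G))⁆ :=
      (QuotientGroup.eq_one_iff _).1 (congrArg Subtype.val hr)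
    have hle : ⁅f.ker, (⊤ : Subgroup (FreeGroup G))⁆ ≤ v.ker.map f.ker.subtype := by
      rw [Subgroup.commutator_le]
      intro x hx g _
      have hx' : f x = 1 := hx
      have hgx : g * x⁻¹ * g⁻¹ ∈ f.ker := by simp [MonoidHom.mem_ker, hx']
      refine ⟨⟨x, hx⟩ * ⟨g * x⁻¹ * g⁻¹, hgx⟩, ?_, by simp [commutatorElement_def, mul_assoc]⟩
      show v _ = 1
      rw [map_mul]
      have h3 : v ⟨g * x⁻¹ * g⁻¹, hgx⟩ = v (⟨x, hx⟩⁻¹) := hv_conj (⟨x, hx⟩⁻¹) g
      rw [h3, map_inv, mul_inv_cancel]
    obtain ⟨s, hs, hsr⟩ := hle hr'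
    rwa [Subtype.ext hsr] at hs
  let vbar : (proj f).ker →* K := fcR.liftOfSurjective hfcR ⟨v, hfcker⟩
  have hvbar : ∀ r, vbar (fcR r) = v r := fun r =>
    fcR.liftOfRightInverse_comp_apply _ (Function.rightInverse_surjInv hfcR) ⟨v, hfcker⟩ r
  -- the transfer shows the values are in the commutator subgroup
  let ϕ : FU →* Abelianization (PreCentral U) :=
    Abelianization.of.comp (QuotientGroup.mk' (preRelComm U))
  have htr : ∀ r : f.ker, MonoidHom.transfer ϕ (r : FreeGroup G) = Abelianization.of (v r : PreCentral U) := by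
    intro r
    have hT := Subgroup.isComplement_range_left (H := FU) (f := Quotient.out) QuotientGroup.out_eq'
    rw [MonoidHom.transfer_def ϕ ⟨_, hT⟩]
    show _ = (Abelianization.of.comp K.subtype) (∏ q : FreeGroup G ⧸ FU, cj r q.out)
    rw [map_prod]
    unfold Subgroup.leftTransversals.diff
    refine Fintype.prod_congr _ _ fun q => ?_
    show ϕ _ = ϕ ⟨(q.out)⁻¹ * r * q.out, ker_le_preFree U (hconjR r q.out)⟩
    congr 1
    apply Subtype.ext
    have hfix : (r : FreeGroup G)⁻¹ • q = q := by
      conv_rhs => rw [← QuotientGroup.out_eq' q]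
      conv_lhs => rw [← QuotientGroup.out_eq' q]
      refine QuotientGroup.eq.2 ?_
      have : ((r : FreeGroup G)⁻¹ * q.out)⁻¹ * q.out = q.out⁻¹ * r * q.out := by group
      exact this ▸ ker_le_preFree U (hconjR r q.out)
    show ((Subgroup.IsComplement.leftQuotientEquiv hT q : FreeGroup G))⁻¹ * _ = (q.out)⁻¹ * r * q.out
    rw [Subgroup.smul_apply_eq_smul_apply_inv_smul, hfix,
      Subgroup.IsComplement.leftQuotientEquiv_apply QuotientGroup.out_eq', smul_eq_mul, mul_assoc]
  have hker : ∀ x ∈ mult f, ∀ hx : x ∈ (proj f).ker, (vbar ⟨x, hx⟩ : PreCentral U) ∈ preMult U := by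
    intro x hxm hx
    obtain ⟨⟨r, hr⟩, hrx⟩ := hfcR ⟨x, hx⟩
    rw [← hrx, hvbar]
    refine ⟨(v ⟨r, hr⟩).2, ?_⟩
    have hxr : fcMk f r = x := congrArg Subtype.val hrx
    have hcomm : r ∈ commutator (FreeGroup G) := by
      have h1 : fcMk f r ∈ commutator (FreeCentral f) := hxr ▸ hxm.2
      rw [← map_commutator_eq (fcMk f) (fun d => by
        obtain ⟨e, he⟩ := QuotientGroup.mk'_surjective _ d
        exact ⟨e, by simp [he]⟩)] at h1
      obtain ⟨c, hc, hcr⟩ := h1
      have h2 : c⁻¹ * r ∈ commutator (FreeGroup G) :=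
        Subgroup.commutator_mono le_top le_rfl (QuotientGroup.eq.1 hcr)
      simpa using Subgroup.mul_mem _ hc h2
    have h3 : MonoidHom.transfer ϕ r = 1 := Abelianization.commutator_subset_ker _ hcomm
    rw [htr ⟨r, hr⟩] at h3
    exact (QuotientGroup.eq_one_iff _).1 h3
  let a₀ : mult f →* preMult U :=
    (K.subtype.comp (vbar.comp (Subgroup.inclusion (mult_le_ker f)))).codRestrict _
      fun x => hker x.1 x.2 (mult_le_ker f x.2)
  have hincl : ∀ x ∈ preMult U, preIncl U x ∈ mult f := by
    intro x hx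
    refine ⟨?_, ?_⟩
    · obtain ⟨w, rfl⟩ := QuotientGroup.mk'_surjective _ x
      exact congrArg Subtype.val hx.1
    · have h := Subgroup.mem_map_of_mem (preIncl U) hx.2
      rw [commutator_def, Subgroup.map_commutator] at h
      exact Subgroup.commutator_mono le_top le_top h
  let b₀ : preMult U →* mult f := ((preIncl U).comp (preMult U).subtype).codRestrict _
    fun x => hincl x.1 x.2
  obtain ⟨k⟩ := nonempty_preMult_equiv U
  refine ⟨k.toMonoidHom.comp a₀, b₀.comp k.symm.toMonoidHom, fun x => ?_⟩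
  rw [MonoidHom.comp_apply, MonoidHom.comp_apply, MulEquiv.coe_toMonoidHom, MulEquiv.coe_toMonoidHom,
    MulEquiv.symm_apply_apply]
  apply Subtype.ext
  obtain ⟨⟨r, hr⟩, hrx⟩ := hfcR ⟨x.1, mult_le_ker f x.2⟩
  show preIncl U (vbar ⟨x.1, mult_le_ker f x.2⟩ : PreCentral U) = ((x : mult f) : FreeCentral f) ^ U.index
  rw [← hrx, hvbar, ← hcardq, ← Finset.card_univ]
  show ((preIncl U).comp K.subtype) (∏ q : FreeGroup G ⧸ FU, cj ⟨r, hr⟩ q.out) = _
  have hxr : fcMk f r = x.1 := congrArg Subtype.val hrx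
  have key : ∀ q : FreeGroup G ⧸ FU, ((preIncl U).comp K.subtype) (cj ⟨r, hr⟩ q.out) = x.1 := by
    intro q
    show fcMk f (q.out⁻¹ * r * q.out) = x.1
    rw [map_mul, map_mul, map_inv, hxr, mul_assoc,
      ← Subgroup.mem_center_iff.1 (mult_le_center f x.2) _, inv_mul_cancel_left]
  induction (Finset.univ : Finset (FreeGroup G ⧸ FU)) using Finset.cons_induction with
  | empty => simp
  | cons q s hq ih =>
    rw [Finset.prod_cons, map_mul, key, ih, Finset.card_cons, pow_succ']

end

end CfsgLib.SchurMult
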