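import Cfsg.Agent.SchurMult.Lifting

/-!
Projective representations and covers.
-/

set_option autoImplicit false
open scoped commutatorElement

namespace CfsgLib.SchurMult

universe u v w

variable {Q : Type u} [Group Q] [Finite Q]

/-- Projective representations lift to a cover. -/
theorem exists_lift_projective {Γ : Type v} [Group Γ] {σ : Γ →* Q} (hσ : Cfsg.IsStemExtension σ)
    (hcard : Nat.card (Mult Q) ≤ Nat.card σ.ker) (n : ℕ)
    (γ : Q →* (GL (Fin n) ℂ ⧸ Subgroup.center (GL (Fin n) ℂ))) :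
    ∃ ρ : Γ →* GL (Fin n) ℂ,
      (QuotientGroup.mk' (Subgroup.center (GL (Fin n) ℂ))).comp ρ = γ.comp σ := by
  set p := QuotientGroup.mk' (Subgroup.center (GL (Fin n) ℂ)) with hp
  have hpk : p.ker = Subgroup.center (GL (Fin n) ℂ) := QuotientGroup.ker_mk' _
  have hps : Function.Surjective p := QuotientGroup.mk'_surjective _
  have hdiv : ∀ k : ℕ, k ≠ 0 → ∀ z ∈ (fibreFst γ p).ker, ∃ y ∈ (fibreFst γ p).ker, y ^ k = z := by
    rintro k hk ⟨⟨q, g⟩, hqg⟩ (hq : q = 1)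
    subst hq
    have hg : g ∈ Subgroup.center (GL (Fin n) ℂ) := by
      rw [← hpk, MonoidHom.mem_ker, ← mem_fibreProd.1 hqg, map_one]
    obtain ⟨y, hy, hyk⟩ := exists_root_center n k hk g hg
    refine ⟨⟨(1, y), ?_⟩, rfl, Subtype.ext (Prod.ext (one_pow k) hyk)⟩
    rw [mem_fibreProd, map_one]
    exact ((QuotientGroup.eq_one_iff y).2 hy).symm
  obtain ⟨ρ, hρ⟩ := exists_lift_of_cover hσ hcard (fibreFst_surjective (σ := γ) hps)
    (fibreFst_ker_le_center (σ := γ) (hpk.le)) hdiv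
  refine ⟨(fibreSnd γ p).comp ρ, MonoidHom.ext fun x => ?_⟩
  show p (ρ x).1.2 = γ (σ x)
  rw [← hρ]
  exact (mem_fibreProd.1 (ρ x).2).symm

/-- A stem extension to which all projective representations lift has every stem kernel as an
image of its kernel. -/
theorem exists_surjective_of_lifting {Γ : Type v} [Group Γ] {σ : Γ →* Q} (hσ : Cfsg.IsStemExtension σ)
    (hlift : ∀ (n : ℕ) (γ : Q →* (GL (Fin n) ℂ ⧸ Subgroup.center (GL (Fin n) ℂ))),
      ∃ ρ : Γ →* GL (Fin n) ℂ, (QuotientGroup.mk' (Subgroup.center (GL (Fin n) ℂ))).comp ρ = γ.comp σ)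
    {Δ : Type w} [Group Δ] {τ : Δ →* Q} (hτ : Cfsg.IsStemExtension τ) :
    ∃ π : σ.ker →* τ.ker, Function.Surjective π := by
  have hf := tautPres_surjective Q
  set f := tautPres Q
  obtain ⟨φ, hφ⟩ := exists_lift f hσ.1 hσ.2.1 (MonoidHom.id Q)
  obtain ⟨ψ, hψ⟩ := exists_lift f hτ.1 hτ.2.1 (MonoidHom.id Q)
  rw [MonoidHom.id_comp] at hφ hψ
  have hmσ : (mult f).map φ = σ.ker := by
    rw [map_mult_eq f hf hσ.2.1 hφ]; exact inf_eq_left.2 hσ.2.2
  have hmτ : (mult f).map ψ = τ.ker := by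
    rw [map_mult_eq f hf hτ.2.1 hψ]; exact inf_eq_left.2 hτ.2.2
  let a : mult f →* σ.ker := (multHom f φ).codRestrict _ fun x => hmσ ▸ Subgroup.mem_map_of_mem φ x.2
  let b : mult f →* τ.ker := (multHom f ψ).codRestrict _ fun x => hmτ ▸ Subgroup.mem_map_of_mem ψ x.2
  have ha : Function.Surjective a := by
    rintro ⟨y, hy⟩
    rw [← hmσ] at hy
    obtain ⟨x, hx, rfl⟩ := hy
    exact ⟨⟨x, hx⟩, rfl⟩
  have hb : Function.Surjective b := by
    rintro ⟨y, hy⟩
    rw [← hmτ] at hy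
    obtain ⟨x, hx, rfl⟩ := hy
    exact ⟨⟨x, hx⟩, rfl⟩
  haveI : Finite τ.ker := Finite.of_surjective b hb
  letI : CommGroup τ.ker := { (inferInstance : Group τ.ker) with
    mul_comm := fun x y => Subtype.ext (Subgroup.mem_center_iff.1 (hτ.2.1 y.2) x.1) }
  have hker : a.ker ≤ b.ker := by
    intro m hm
    by_contra hbm
    obtain ⟨χ, hχ⟩ := CommGroup.exists_apply_ne_one_of_hasEnoughRootsOfUnity τ.ker ℂ hbm
    obtain ⟨n, ρ, hn, hρ⟩ := exists_monomial_rep hτ.1 hτ.2.1 χ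
    set p := QuotientGroup.mk' (Subgroup.center (GL (Fin n) ℂ)) with hp
    have hkill : τ.ker ≤ (p.comp ρ).ker := by
      intro z hz
      show p (ρ z) = 1
      refine (QuotientGroup.eq_one_iff _).2 ?_
      rw [Subgroup.mem_center_iff]
      intro g
      apply Units.ext
      rw [Units.val_mul, Units.val_mul, hρ ⟨z, hz⟩]
      simp
    let γ : Q →* _ := τ.liftOfSurjective hτ.1 ⟨p.comp ρ, hkill⟩
    have hγ : ∀ d, γ (τ d) = p (ρ d) := fun d =>
      τ.liftOfRightInverse_comp_apply _ (Function.rightInverse_surjInv hτ.1) ⟨p.comp ρ, hkill⟩ d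
    obtain ⟨ρ', hρ'⟩ := hlift n γ
    have hsame : (p.comp (ρ'.comp φ)) = p.comp (ρ.comp ψ) := by
      refine MonoidHom.ext fun x => ?_
      show p (ρ' (φ x)) = p (ρ (ψ x))
      rw [← hγ]
      exact (DFunLike.congr_fun hρ' (φ x)).trans (congrArg γ
        ((DFunLike.congr_fun hφ x).trans (DFunLike.congr_fun hψ x).symm))
    have hc : ∀ x, (ρ' (φ x)) * (ρ (ψ x))⁻¹ ∈ Subgroup.center (GL (Fin n) ℂ) := fun x => by
      rw [← QuotientGroup.eq_one_iff]
      show p _ = 1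
      rw [map_mul, map_inv, show p (ρ' (φ x)) = p (ρ (ψ x)) from DFunLike.congr_fun hsame x,
        mul_inv_cancel]
    let c : FreeCentral f →* Subgroup.center (GL (Fin n) ℂ) :=
      MonoidHom.mk' (fun x => ⟨_, hc x⟩) (fun x y => Subtype.ext (by
        show ρ' (φ (x * y)) * (ρ (ψ (x * y)))⁻¹ =
          ρ' (φ x) * (ρ (ψ x))⁻¹ * (ρ' (φ y) * (ρ (ψ y))⁻¹)
        have h1 := Subgroup.mem_center_iff.1 (hc y) (ρ (ψ x))⁻¹
        rw [map_mul, map_mul, map_mul, map_mul, mul_inv_rev, mul_assoc, mul_assoc (ρ' (φ x)), h1]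
        group))
    have hcm : commutator (FreeCentral f) ≤ c.ker := by
      rw [commutator_def, Subgroup.commutator_le]
      intro x _ y _
      rw [MonoidHom.mem_ker, map_commutatorElement, commutatorElement_eq_one_iff_mul_comm]
      exact Subtype.ext (Subgroup.mem_center_iff.1 (c y).2 _)
    have h1 : ρ' (φ m.1) * (ρ (ψ m.1))⁻¹ = 1 := congrArg Subtype.val (MonoidHom.mem_ker.1 (hcm m.2.2))
    have h2 : φ m.1 = 1 := congrArg Subtype.val hm
    rw [h2, map_one, one_mul, inv_eq_one] at h1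
    apply hχ
    have h4 := hρ (b m)
    rw [show ((b m : τ.ker) : Δ) = ψ m.1 from rfl, h1, Units.val_one] at h4
    haveI : NeZero n := ⟨hn.ne'⟩
    have h5 := congrFun (congrFun h4 0) 0
    simp only [Matrix.one_apply_eq, Matrix.smul_apply, smul_eq_mul, mul_one] at h5
    exact Units.ext h5.symm
  refine ⟨a.liftOfSurjective ha ⟨b, hker⟩, fun y => ?_⟩
  obtain ⟨x, rfl⟩ := hb y
  exact ⟨a x, a.liftOfRightInverse_comp_apply (Function.surjInv ha)
    (Function.rightInverse_surjInv ha) ⟨b, hker⟩ x⟩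

end CfsgLib.SchurMult
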