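import Cfsg.Agent.SchurMult.Cover
import Cfsg.Agent.SchurMult.Twisted

/-!
The multiplier of a direct product.
-/

set_option autoImplicit false
open scoped commutatorElement TensorProduct

namespace CfsgLib.SchurMult

universe u v w

/-- The tensor product of the commutator quotients, multiplicatively. -/
abbrev AbTensor (Q₁ : Type u) (Q₂ : Type v) [Group Q₁] [Group Q₂] : Type max u v :=
  Multiplicative (Additive (Abelianization Q₁) ⊗[ℤ] Additive (Abelianization Q₂))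

theorem natCard_smul_tensor {Q₁ : Type u} {Q₂ : Type v} [Group Q₁] [Group Q₂] [Finite Q₁]
    (t : Additive (Abelianization Q₁) ⊗[ℤ] Additive (Abelianization Q₂)) :
    (Nat.card (Abelianization Q₁) : ℤ) • t = 0 := by
  induction t using TensorProduct.induction_on with
  | zero => simp
  | tmul a b =>
    rw [TensorProduct.smul_tmul']
    have : (Nat.card (Abelianization Q₁) : ℤ) • a = 0 := by
      apply Additive.toMul.injective
      rw [toMul_zsmul, zpow_natCast, toMul_zero]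
      exact pow_card_eq_one'
    rw [this, TensorProduct.zero_tmul]
  | add x y hx hy => rw [smul_add, hx, hy, add_zero]

theorem finite_abTensor (Q₁ : Type u) (Q₂ : Type v) [Group Q₁] [Group Q₂] [Finite Q₁] [Finite Q₂] :
    Finite (AbTensor Q₁ Q₂) := by
  have hfg : AddGroup.FG (Additive (Abelianization Q₁) ⊗[ℤ] Additive (Abelianization Q₂)) := by
    rw [AddGroup.fg_iff]
    refine ⟨Set.range fun p : Additive (Abelianization Q₁) × Additive (Abelianization Q₂) =>
      p.1 ⊗ₜ[ℤ] p.2, eq_top_iff.2 fun t _ => ?_, Set.finite_range _⟩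
    induction t using TensorProduct.induction_on with
    | zero => exact AddSubgroup.zero_mem _
    | tmul a b => exact AddSubgroup.subset_closure ⟨(a, b), rfl⟩
    | add x y hx hy => exact AddSubgroup.add_mem _ (hx (AddSubgroup.mem_top _)) (hy (AddSubgroup.mem_top _))
  haveI : Finite (Additive (Abelianization Q₁) ⊗[ℤ] Additive (Abelianization Q₂)) :=
    AddCommGroup.finite_of_fg_isAddTorsion _ (fun t =>
      isOfFinAddOrder_iff_zsmul_eq_zero.2 ⟨_, Int.natCast_ne_zero.2 Nat.card_pos.ne', natCard_smul_tensor t⟩)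
  infer_instance

theorem abTensor_subsingleton {Q₁ : Type u} {Q₂ : Type v} [Group Q₁] [Group Q₂] [Finite Q₁] [Finite Q₂]
    (h : Nat.Coprime (Nat.card (Abelianization Q₁)) (Nat.card (Abelianization Q₂))) :
    Subsingleton (AbTensor Q₁ Q₂) := by
  have hall : ∀ t : Additive (Abelianization Q₁) ⊗[ℤ] Additive (Abelianization Q₂), t = 0 := by
    intro t
    induction t using TensorProduct.induction_on with
    | zero => rfl
    | tmul a b =>
      have h1 : (Nat.card (Abelianization Q₁) : ℤ) • (a ⊗ₜ[ℤ] b) = 0 := natCard_smul_tensor _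
      have hb : (Nat.card (Abelianization Q₂) : ℤ) • b = 0 := by
        apply Additive.toMul.injective
        rw [toMul_zsmul, zpow_natCast, toMul_zero]
        exact pow_card_eq_one'
      have h2 : (Nat.card (Abelianization Q₂) : ℤ) • (a ⊗ₜ[ℤ] b) = 0 := by
        rw [← TensorProduct.tmul_smul, hb, TensorProduct.tmul_zero]
      obtain ⟨x, y, hxy⟩ := Int.isCoprime_iff_gcd_eq_one.2
        (show Int.gcd (Nat.card (Abelianization Q₁) : ℤ) (Nat.card (Abelianization Q₂) : ℤ) = 1 by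
          rw [Int.gcd_natCast_natCast]; exact h)
      rw [← one_smul ℤ (a ⊗ₜ[ℤ] b), ← hxy, add_smul, mul_smul, mul_smul, h1, h2]
      simp
    | add x y hx hy => rw [hx, hy, add_zero]
  exact ⟨fun x y => Multiplicative.toAdd.injective ((hall _).trans (hall _).symm)⟩

section Upper

variable {Q₁ : Type u} {Q₂ : Type v} [Group Q₁] [Group Q₂]
variable {Δ : Type w} [Group Δ] {τ : Δ →* Q₁ × Q₂}

theorem commutator_mem_ker_of_factors {x y : Δ} (hx : (τ x).2 = 1) (hy : (τ y).1 = 1) :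
    ⁅x, y⁆ ∈ τ.ker := by
  rw [MonoidHom.mem_ker, map_commutatorElement, commutatorElement_eq_one_iff_mul_comm]
  ext <;> simp [hx, hy]

/-- The order of a stem kernel over a product is bounded by the product bound. -/
theorem card_stem_ker_prod_le [Finite Q₁] [Finite Q₂] (hτ : Cfsg.IsStemExtension τ) :
    Nat.card τ.ker ≤ Nat.card (Mult Q₁) * Nat.card (Mult Q₂) * Nat.card (AbTensor Q₁ Q₂) := by
  haveI := finite_abTensor Q₁ Q₂
  let D₁ : Subgroup Δ := ((MonoidHom.snd Q₁ Q₂).comp τ).ker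
  let D₂ : Subgroup Δ := ((MonoidHom.fst Q₁ Q₂).comp τ).ker
  let τ₁ : D₁ →* Q₁ := ((MonoidHom.fst Q₁ Q₂).comp τ).comp D₁.subtype
  let τ₂ : D₂ →* Q₂ := ((MonoidHom.snd Q₁ Q₂).comp τ).comp D₂.subtype
  have hs₁ : Function.Surjective τ₁ := fun q => by
    obtain ⟨d, hd⟩ := hτ.1 (q, 1)
    exact ⟨⟨d, by show (τ d).2 = 1; rw [hd]⟩, by show (τ d).1 = q; rw [hd]⟩
  have hs₂ : Function.Surjective τ₂ := fun q => by
    obtain ⟨d, hd⟩ := hτ.1 (1, q)
    exact ⟨⟨d, by show (τ d).1 = 1; rw [hd]⟩, by show (τ d).2 = q; rw [hd]⟩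
  have hc₁ : τ₁.ker ≤ Subgroup.center D₁ := by
    rintro ⟨d, hd⟩ (h : (τ d).1 = 1)
    rw [Subgroup.mem_center_iff]
    intro y
    exact Subtype.ext (Subgroup.mem_center_iff.1 (hτ.2.1 (Prod.ext h hd)) y.1)
  have hc₂ : τ₂.ker ≤ Subgroup.center D₂ := by
    rintro ⟨d, hd⟩ (h : (τ d).2 = 1)
    rw [Subgroup.mem_center_iff]
    intro y
    exact Subtype.ext (Subgroup.mem_center_iff.1 (hτ.2.1 (Prod.ext hd h)) y.1)
  obtain ⟨π₁, hπ₁⟩ := exists_surjective_of_hasSchurMultiplier (hasSchurMultiplier_mult (Q := Q₁)) hs₁ hc₁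
  obtain ⟨π₂, hπ₂⟩ := exists_surjective_of_hasSchurMultiplier (hasSchurMultiplier_mult (Q := Q₂)) hs₂ hc₂
  -- the commutator pairing
  let Z : Subgroup Δ := τ.ker
  haveI : IsMulCommutative Z :=
    ⟨⟨fun a b => Subtype.ext (Subgroup.mem_center_iff.1 (hτ.2.1 b.2) a.1)⟩⟩
  letI : CommGroup Z := { (inferInstance : Group Z) with
    mul_comm := fun a b => IsMulCommutative.is_comm.comm a b }
  let val : D₁ → D₂ → Z := fun x y => ⟨⁅x.1, y.1⁆, commutator_mem_ker_of_factors x.2 y.2⟩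
  have hl : ∀ x x' y, val (x * x') y = val x y * val x' y := by
    intro x x' y
    apply Subtype.ext
    show ⁅x.1 * x'.1, y.1⁆ = ⁅x.1, y.1⁆ * ⁅x'.1, y.1⁆
    have hc := Subgroup.mem_center_iff.1 (hτ.2.1 (val x' y).2)
    rw [hc ⁅x.1, y.1⁆]
    calc ⁅x.1 * x'.1, y.1⁆ = x.1 * ⁅x'.1, y.1⁆ * x.1⁻¹ * ⁅x.1, y.1⁆ := by
          simp only [commutatorElement_def]; group
      _ = ⁅x'.1, y.1⁆ * ⁅x.1, y.1⁆ := by rw [hc x.1, mul_inv_cancel_right]
  have hr : ∀ x y y', val x (y * y') = val x y * val x y' := by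
    intro x y y'
    apply Subtype.ext
    show ⁅x.1, y.1 * y'.1⁆ = ⁅x.1, y.1⁆ * ⁅x.1, y'.1⁆
    have hc := Subgroup.mem_center_iff.1 (hτ.2.1 (val x y').2)
    calc ⁅x.1, y.1 * y'.1⁆ = ⁅x.1, y.1⁆ * (y.1 * ⁅x.1, y'.1⁆ * y.1⁻¹) := by
          simp only [commutatorElement_def]; group
      _ = ⁅x.1, y.1⁆ * ⁅x.1, y'.1⁆ := by rw [hc y.1, mul_inv_cancel_right]
  let P : D₁ →* D₂ →* Z := MonoidHom.mk' (fun x => MonoidHom.mk' (val x) (hr x)) (fun x x' =>
    MonoidHom.ext fun y => hl x x' y)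
  -- pass to `Q₁ × Q₂`, then to the commutator quotients
  have hP₂ : ∀ x, τ₂.ker ≤ (P x).ker := by
    intro x y hy
    apply Subtype.ext
    show ⁅x.1, y.1⁆ = 1
    rw [commutatorElement_eq_one_iff_mul_comm]
    exact Subgroup.mem_center_iff.1 (hτ.2.1 (Prod.ext y.2 hy)) x.1
  have hP₁ : τ₁.ker ≤ P.ker := by
    intro x hx
    refine MonoidHom.ext fun y => ?_
    apply Subtype.ext
    show ⁅x.1, y.1⁆ = 1
    rw [commutatorElement_eq_one_iff_mul_comm]
    exact (Subgroup.mem_center_iff.1 (hτ.2.1 (Prod.ext hx x.2)) y.1).symm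
  let P' : D₁ →* Abelianization Q₂ →* Z := MonoidHom.mk'
    (fun x => Abelianization.lift (τ₂.liftOfSurjective hs₂ ⟨P x, hP₂ x⟩))
    (fun x x' => by
      refine Abelianization.hom_ext _ _ (MonoidHom.ext fun q => ?_)
      obtain ⟨y, rfl⟩ := hs₂ q
      simp only [MonoidHom.comp_apply, Abelianization.lift_apply_of, MonoidHom.mul_apply]
      rw [τ₂.liftOfRightInverse_comp_apply _ _ ⟨P (x * x'), hP₂ _⟩ y,
        τ₂.liftOfRightInverse_comp_apply _ _ ⟨P x, hP₂ _⟩ y,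
        τ₂.liftOfRightInverse_comp_apply _ _ ⟨P x', hP₂ _⟩ y]
      exact hl x x' y)
  have hP'₁ : τ₁.ker ≤ P'.ker := by
    intro x hx
    refine Abelianization.hom_ext _ _ (MonoidHom.ext fun q => ?_)
    obtain ⟨y, rfl⟩ := hs₂ q
    simp only [P', MonoidHom.comp_apply, MonoidHom.mk'_apply, Abelianization.lift_apply_of,
      MonoidHom.one_apply]
    rw [τ₂.liftOfRightInverse_comp_apply _ _ ⟨P x, hP₂ x⟩ y]
    exact DFunLike.congr_fun (hP₁ hx) y
  let R : Abelianization Q₁ →* Abelianization Q₂ →* Z :=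
    Abelianization.lift (τ₁.liftOfSurjective hs₁ ⟨P', hP'₁⟩)
  let R₂ : Additive (Abelianization Q₁) →+ Additive (Abelianization Q₂) →+ Additive Z :=
    { toFun := fun a => (R (Additive.toMul a)).toAdditive
      map_zero' := by ext b; simp
      map_add' := fun a a' => by ext b; simp }
  let L : (Additive (Abelianization Q₁) ⊗[ℤ] Additive (Abelianization Q₂)) →ₗ[ℤ] Additive Z :=
    TensorProduct.lift (LinearMap.mk₂ ℤ (fun a b => R₂ a b) (fun a a' b => by simp) (fun c a b => by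
        show R₂ (c • a) b = c • R₂ a b
        rw [map_zsmul]; rfl) (fun a b b' => by simp) (fun c a b => by
        show R₂ a (c • b) = c • R₂ a b
        rw [map_zsmul]))
  let L' : AbTensor Q₁ Q₂ →* Z := L.toAddMonoidHom.toMultiplicativeLeft
  have hval : ∀ x y, ∃ t, L' t = val x y := by
    intro x y
    refine ⟨Multiplicative.ofAdd (Additive.ofMul (Abelianization.of (τ₁ x)) ⊗ₜ[ℤ]
      Additive.ofMul (Abelianization.of (τ₂ y))), ?_⟩
    show R (Abelianization.of (τ₁ x)) (Abelianization.of (τ₂ y)) = val x y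
    have h1 : R (Abelianization.of (τ₁ x)) = P' x := by
      simp only [R, Abelianization.lift_apply_of]
      exact τ₁.liftOfRightInverse_comp_apply _ _ ⟨P', hP'₁⟩ x
    rw [h1]
    show Abelianization.lift (τ₂.liftOfSurjective hs₂ ⟨P x, hP₂ x⟩) (Abelianization.of (τ₂ y)) = _
    rw [Abelianization.lift_apply_of]
    exact τ₂.liftOfRightInverse_comp_apply _ _ ⟨P x, hP₂ x⟩ y
  -- the three pieces generate the kernel
  let C₁ : Subgroup Δ := (commutator D₁).map D₁.subtype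
  let C₂ : Subgroup Δ := (commutator D₂).map D₂.subtype
  let C : Subgroup Δ := L'.range.map Z.subtype
  have hCc : C ≤ Subgroup.center Δ := (Subgroup.map_subtype_le _).trans hτ.2.1
  haveI : C.Normal := ⟨fun n hn g => by
    rw [Subgroup.mem_center_iff.1 (hCc hn) g, mul_inv_cancel_right]; exact hn⟩
  haveI : C₁.Normal := by
    haveI : D₁.Normal := MonoidHom.normal_ker _
    exact ConjAct.normal_of_characteristic_of_normal
  haveI : C₂.Normal := by
    haveI : D₂.Normal := MonoidHom.normal_ker _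
    exact ConjAct.normal_of_characteristic_of_normal
  let N : Subgroup Δ := C₁ ⊔ C₂ ⊔ C
  let q := QuotientGroup.mk' N
  have hN : commutator Δ ≤ N := by
    have hdec : ∀ d : Δ, ∃ x : D₁, ∃ y : D₂, ∃ z ∈ Subgroup.center Δ, d = x.1 * y.1 * z := by
      intro d
      obtain ⟨x, hx⟩ := hs₁ (τ d).1
      obtain ⟨y, hy⟩ := hs₂ (τ d).2
      refine ⟨x, y, (x.1 * y.1)⁻¹ * d, hτ.2.1 ?_, by rw [mul_inv_cancel_left]⟩
      have hx1 : (τ x.1).1 = (τ d).1 := hx
      have hx2 : (τ x.1).2 = 1 := x.2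
      have hy1 : (τ y.1).1 = 1 := y.2
      have hy2 : (τ y.1).2 = (τ d).2 := hy
      rw [MonoidHom.mem_ker]
      ext <;> simp [hx1, hx2, hy1, hy2]
    have hcom : ∀ a b : Δ, ⁅a, b⁆ ∈ N → q a * q b = q b * q a := fun a b h => by
      rw [← commutatorElement_eq_one_iff_mul_comm, ← map_commutatorElement]
      exact (QuotientGroup.eq_one_iff _).2 h
    have hxy : ∀ (x : D₁) (y : D₂), q x.1 * q y.1 = q y.1 * q x.1 := fun x y => hcom _ _ (by
      obtain ⟨t, ht⟩ := hval x y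
      exact Subgroup.mem_sup_right ⟨_, ⟨t, rfl⟩, congrArg Subtype.val ht⟩)
    have hxx : ∀ (x x' : D₁), q x.1 * q x'.1 = q x'.1 * q x.1 := fun x x' => hcom _ _
      (Subgroup.mem_sup_left (Subgroup.mem_sup_left ⟨⁅x, x'⁆,
        Subgroup.commutator_mem_commutator (Subgroup.mem_top _) (Subgroup.mem_top _), rfl⟩))
    have hyy : ∀ (y y' : D₂), q y.1 * q y'.1 = q y'.1 * q y.1 := fun y y' => hcom _ _
      (Subgroup.mem_sup_left (Subgroup.mem_sup_right ⟨⁅y, y'⁆,
        Subgroup.commutator_mem_commutator (Subgroup.mem_top _) (Subgroup.mem_top _), rfl⟩))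
    have hz : ∀ z ∈ Subgroup.center Δ, ∀ d : Δ, Commute (q z) (q d) := fun z hz d => by
      show q z * q d = q d * q z
      rw [← map_mul, ← map_mul, Subgroup.mem_center_iff.1 hz d]
    rw [commutator_eq_closure, Subgroup.closure_le]
    rintro _ ⟨a, b, rfl⟩
    obtain ⟨x, y, z, hz1, rfl⟩ := hdec a
    obtain ⟨x', y', z', hz2, rfl⟩ := hdec b
    rw [SetLike.mem_coe, ← QuotientGroup.eq_one_iff]
    show q _ = 1
    rw [map_commutatorElement, commutatorElement_eq_one_iff_mul_comm]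
    have c1 : Commute (q x.1 * q y.1) (q x'.1 * q y'.1) :=
      ((Commute.mul_right (hxx x x') (hxy x y')).mul_left
        (Commute.mul_right (hxy x' y).symm (hyy y y')))
    simp only [map_mul]
    exact ((c1.mul_right (((hz z' hz2 x.1).symm).mul_left ((hz z' hz2 y.1).symm))).mul_left
      (((hz z hz1 x'.1).mul_right (hz z hz1 y'.1)).mul_right (hz z hz1 z'))).eq
  have hdecomp : ∀ k : Z, ∃ (a : ↥(τ₁.ker ⊓ commutator D₁)) (b : ↥(τ₂.ker ⊓ commutator D₂))
      (t : AbTensor Q₁ Q₂), (k : Δ) = (a : D₁).1 * (b : D₂).1 * (L' t).1 := by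
    intro k
    have hk : (k : Δ) ∈ C₁ ⊔ C₂ ⊔ C := hN (hτ.2.2 k.2)
    rw [← SetLike.mem_coe, Subgroup.mul_normal, Subgroup.mul_normal] at hk
    obtain ⟨_, ⟨_, ⟨x, hx, rfl⟩, _, ⟨y, hy, rfl⟩, rfl⟩, _, ⟨_, ⟨t, rfl⟩, rfl⟩, hk⟩ := hk
    have hk' : x.1 * y.1 * (L' t).1 = k := hk
    have h0 : τ (x.1 * y.1 * (L' t).1) = 1 := by rw [hk']; exact k.2
    rw [map_mul, map_mul, MonoidHom.mem_ker.1 (L' t).2, mul_one] at h0
    have h1 := congrArg Prod.fst h0
    have h2 := congrArg Prod.snd h0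
    have hx2 : (τ x.1).2 = 1 := x.2
    have hy1 : (τ y.1).1 = 1 := y.2
    simp only [Prod.fst_mul, Prod.snd_mul, hx2, hy1, mul_one, one_mul, Prod.fst_one,
      Prod.snd_one] at h1 h2
    exact ⟨⟨x, h1, hx⟩, ⟨y, h2, hy⟩, t, hk'.symm⟩
  let F : Mult Q₁ × Mult Q₂ × AbTensor Q₁ Q₂ → Z := fun m =>
    ⟨((π₁ m.1 : D₁) : Δ) * ((π₂ m.2.1 : D₂) : Δ) * (L' m.2.2).1, by
      refine Z.mul_mem (Z.mul_mem ?_ ?_) (L' m.2.2).2
      · exact Prod.ext (π₁ m.1).2.1 ((π₁ m.1 : D₁).2)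
      · exact Prod.ext ((π₂ m.2.1 : D₂).2) (π₂ m.2.1).2.1⟩
  have hF : Function.Surjective F := by
    intro k
    obtain ⟨a, b, t, hk⟩ := hdecomp k
    obtain ⟨m₁, rfl⟩ := hπ₁ a
    obtain ⟨m₂, rfl⟩ := hπ₂ b
    exact ⟨(m₁, m₂, t), Subtype.ext hk.symm⟩
  have h := Nat.card_le_card_of_surjective F hF
  rwa [Nat.card_prod, Nat.card_prod, ← mul_assoc] at h

end Upper

/-- The Schur multiplier of a direct product. -/
theorem hasSchurMultiplier_prod {Q₁ : Type u} {Q₂ : Type v} [Group Q₁] [Group Q₂] [Finite Q₁] [Finite Q₂]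
    {A B : Type w} [CommGroup A] [CommGroup B] (hA : Cfsg.HasSchurMultiplier Q₁ A)
    (hB : Cfsg.HasSchurMultiplier Q₂ B) :
    Cfsg.HasSchurMultiplier (Q₁ × Q₂) (A × B × AbTensor Q₁ Q₂) := by
  obtain ⟨eA⟩ := nonempty_mulEquiv_mult hA
  obtain ⟨eB⟩ := nonempty_mulEquiv_mult hB
  obtain ⟨⟨Γ₁, _, _, σ₁, hσ₁, ⟨k₁⟩⟩, -⟩ := hA
  obtain ⟨⟨Γ₂, _, _, σ₂, hσ₂, ⟨k₂⟩⟩, -⟩ := hB
  haveI := finite_abTensor Q₁ Q₂
  let α₁ : Γ₁ →* Abelianization Q₁ := Abelianization.of.comp σ₁
  let α₂ : Γ₂ →* Abelianization Q₂ := Abelianization.of.comp σ₂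
  let β : Γ₁ × Γ₂ →* Γ₁ × Γ₂ →* AbTensor Q₁ Q₂ :=
    MonoidHom.mk' (fun e => MonoidHom.mk'
      (fun e' => Multiplicative.ofAdd (Additive.ofMul (α₁ e'.1) ⊗ₜ[ℤ] Additive.ofMul (α₂ e.2)))
      (fun e' e'' => by simp [TensorProduct.add_tmul]))
      (fun e e' => by ext x; simp [TensorProduct.tmul_add])
  let σ : TwistExt β →* Q₁ × Q₂ := (σ₁.prodMap σ₂).comp (TwistExt.projTwist β)
  have hk1 : ∀ x ∈ σ.ker, σ₁ x.base.1 = 1 ∧ σ₂ x.base.2 = 1 := fun x hx =>
    ⟨congrArg Prod.fst hx, congrArg Prod.snd hx⟩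
  have hβk : ∀ x ∈ σ.ker, ∀ e, β x.base e = 1 ∧ β e x.base = 1 := by
    intro x hx e
    obtain ⟨h1, h2⟩ := hk1 x hx
    constructor
    · simp [β, α₂, h2]
    · simp [β, α₁, h1]
  have hT : ∀ t : AbTensor Q₁ Q₂, (⟨1, t⟩ : TwistExt β) ∈ commutator (TwistExt β) := by
    intro t
    obtain ⟨t, rfl⟩ := Multiplicative.ofAdd.surjective t
    induction t using TensorProduct.induction_on with
    | zero =>
      rw [ofAdd_zero]
      exact (commutator (TwistExt β)).one_mem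
    | tmul a b =>
      obtain ⟨a, rfl⟩ := Additive.ofMul.surjective a
      obtain ⟨b, rfl⟩ := Additive.ofMul.surjective b
      obtain ⟨a, rfl⟩ := QuotientGroup.mk_surjective a
      obtain ⟨b, rfl⟩ := QuotientGroup.mk_surjective b
      obtain ⟨x, rfl⟩ := hσ₁.1 a
      obtain ⟨y, rfl⟩ := hσ₂.1 b
      have h := Subgroup.commutator_mem_commutator
        (Subgroup.mem_top (⟨((1 : Γ₁), y), 1⟩ : TwistExt β))
        (Subgroup.mem_top (⟨(x, (1 : Γ₂)), 1⟩ : TwistExt β))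
      rw [TwistExt.commutator_lifts (by simp)] at h
      have hv : β ((1 : Γ₁), y) (x, (1 : Γ₂)) * (β (x, (1 : Γ₂)) ((1 : Γ₁), y))⁻¹ =
          Multiplicative.ofAdd (Additive.ofMul (Abelianization.of (σ₁ x)) ⊗ₜ[ℤ]
            Additive.ofMul (Abelianization.of (σ₂ y))) := by
        simp [β, α₁, α₂]
      rw [hv, ← commutator_def] at h
      exact h
    | add s t hs ht =>
      have h := Subgroup.mul_mem _ hs ht
      convert h using 1
      refine TwistExt.ext (by simp) ?_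
      simp
  have hσ : Cfsg.IsStemExtension σ := by
    refine ⟨(Prod.map_surjective.2 ⟨hσ₁.1, hσ₂.1⟩).comp (TwistExt.projTwist_surjective β), ?_, ?_⟩
    · intro x hx
      obtain ⟨h1, h2⟩ := hk1 x hx
      refine TwistExt.mem_center ?_ (fun e => by rw [(hβk x hx e).1, (hβk x hx e).2])
      rw [Subgroup.mem_center_iff]
      intro g
      exact Prod.ext (Subgroup.mem_center_iff.1 (hσ₁.2.1 h1) g.1)
        (Subgroup.mem_center_iff.1 (hσ₂.2.1 h2) g.2)
    · intro x hx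
      obtain ⟨h1, h2⟩ := hk1 x hx
      have hb : x.base ∈ commutator (Γ₁ × Γ₂) := by
        have : x.base = (x.base.1, 1) * (1, x.base.2) := by simp
        rw [this]
        refine Subgroup.mul_mem _ ?_ ?_
        · have h := Subgroup.mem_map_of_mem (MonoidHom.inl Γ₁ Γ₂) (hσ₁.2.2 h1)
          rw [commutator_def, Subgroup.map_commutator] at h
          exact Subgroup.commutator_mono le_top le_top h
        · have h := Subgroup.mem_map_of_mem (MonoidHom.inr Γ₁ Γ₂) (hσ₂.2.2 h2)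
          rw [commutator_def, Subgroup.map_commutator] at h
          exact Subgroup.commutator_mono le_top le_top h
      rw [← map_commutator_eq (TwistExt.projTwist β) (fun d => by
        obtain ⟨e, he⟩ := TwistExt.projTwist_surjective β d
        exact ⟨e, by simp [he]⟩)] at hb
      obtain ⟨c, hc, hcx⟩ := hb
      have h3 : c⁻¹ * x = ⟨1, (c⁻¹ * x).fib⟩ := TwistExt.ext (by
        show c.base⁻¹ * x.base = 1
        rw [show c.base = x.base from hcx, inv_mul_cancel]) rfl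
      have h4 : c⁻¹ * x ∈ commutator (TwistExt β) := h3 ▸ hT _
      simpa using Subgroup.mul_mem _ hc h4
  let e : σ.ker ≃* A × B × AbTensor Q₁ Q₂ :=
    { toFun := fun x => (k₁ ⟨x.1.base.1, (hk1 x.1 x.2).1⟩, k₂ ⟨x.1.base.2, (hk1 x.1 x.2).2⟩, x.1.fib)
      invFun := fun p => ⟨⟨((k₁.symm p.1).1, (k₂.symm p.2.1).1), p.2.2⟩,
        Prod.ext (k₁.symm p.1).2 (k₂.symm p.2.1).2⟩
      left_inv := fun x => Subtype.ext (TwistExt.ext (by simp) rfl)
      right_inv := fun p => Prod.ext (k₁.apply_symm_apply p.1) (Prod.ext (k₂.apply_symm_apply p.2.1) rfl)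
      map_mul' := fun x y => by
        refine Prod.ext ?_ (Prod.ext ?_ ?_)
        · exact (congrArg k₁ (Subtype.ext rfl)).trans (map_mul k₁ ⟨x.1.base.1, _⟩ ⟨y.1.base.1, _⟩)
        · exact (congrArg k₂ (Subtype.ext rfl)).trans (map_mul k₂ ⟨x.1.base.2, _⟩ ⟨y.1.base.2, _⟩)
        · show x.1.fib * y.1.fib * β x.1.base y.1.base = x.1.fib * y.1.fib
          rw [(hβk x.1 x.2 _).1, mul_one] }
  refine hasSchurMultiplier_of_stem_of_bound hσ e (fun Δ _ _ τ hτ => ?_)
  rw [Nat.card_congr e.toEquiv, Nat.card_prod, Nat.card_prod, Nat.card_congr eA.toEquiv,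
    Nat.card_congr eB.toEquiv, ← mul_assoc]
  exact card_stem_ker_prod_le hτ

end CfsgLib.SchurMult
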