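import Cfsg.Agent.SchurMult.Multiplier

/-!
Perfect groups and central extensions.
-/

set_option autoImplicit false
open scoped commutatorElement

namespace CfsgLib.SchurMult

variable {G : Type*} [Group G] {X : Type*} [Group X] {Q : Type*} [Group Q]

/-- Two maps out of a perfect group agreeing modulo a central kernel are equal. -/
theorem hom_eq_of_perfect (hG : Group.IsPerfect G) {ξ : X →* Q} (hc : ξ.ker ≤ Subgroup.center X)
    {η η' : G →* X} (h : ξ.comp η = ξ.comp η') : η = η' := by
  have hd : ∀ g, η g * (η' g)⁻¹ ∈ Subgroup.center X := fun g => hc (by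
    have hg : ξ (η g) = ξ (η' g) := DFunLike.congr_fun h g
    simp [MonoidHom.mem_ker, hg])
  let d : G →* Subgroup.center X :=
    MonoidHom.mk' (fun g => ⟨η g * (η' g)⁻¹, hd g⟩) (fun a b => Subtype.ext (by
      show η (a * b) * (η' (a * b))⁻¹ = η a * (η' a)⁻¹ * (η b * (η' b)⁻¹)
      have h1 := Subgroup.mem_center_iff.1 (hd b) (η' a)⁻¹
      rw [map_mul, map_mul, mul_inv_rev, mul_assoc, mul_assoc (η a), h1]
      group))
  have htop : commutator G ≤ d.ker := by
    rw [commutator_def, Subgroup.commutator_le]
    intro a _ b _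
    rw [MonoidHom.mem_ker, map_commutatorElement, commutatorElement_eq_one_iff_mul_comm]
    exact Subtype.ext (Subgroup.mem_center_iff.1 (d b).2 _)
  rw [hG.commutator_eq_top] at htop
  refine MonoidHom.ext fun g => ?_
  exact mul_inv_eq_one.1 (congrArg Subtype.val (MonoidHom.mem_ker.1 (htop (Subgroup.mem_top g))))

/-- A stem extension of a perfect group is perfect. -/
theorem isPerfect_of_stem {τ : X →* G} (hG : Group.IsPerfect G) (hτ : Cfsg.IsStemExtension τ) :
    Group.IsPerfect X := by
  have h : (commutator X).map τ = commutator G := map_commutator_eq τ fun g => by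
    obtain ⟨x, hx⟩ := hτ.1 g
    exact ⟨x, by simp [hx]⟩
  refine ⟨eq_top_iff.2 fun x _ => ?_⟩
  obtain ⟨y, hy, hyx⟩ : τ x ∈ (commutator X).map τ := by
    rw [h, hG.commutator_eq_top]; exact Subgroup.mem_top _
  have : y⁻¹ * x ∈ commutator X := hτ.2.2 (by simp [MonoidHom.mem_ker, hyx])
  simpa using (commutator X).mul_mem hy this

/-- The centre of a perfect group maps onto that of a central quotient (Grün), so composites of
central extensions of perfect groups are central. -/
theorem comp_ker_le_center (hX : Group.IsPerfect X) {τ : X →* G} (hs : Function.Surjective τ)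
    (hc : τ.ker ≤ Subgroup.center X) {π : G →* Q} (hπ : π.ker ≤ Subgroup.center G) :
    (π.comp τ).ker ≤ Subgroup.center X := by
  intro x hx
  have hx' : τ x ∈ Subgroup.center G := hπ hx
  rw [Subgroup.mem_center_iff]
  intro y
  have hconj : ∀ z, τ (x * z * x⁻¹) = τ z := fun z => by
    rw [map_mul, map_mul, map_inv, ← Subgroup.mem_center_iff.1 hx' (τ z), mul_inv_cancel_right]
  have h : (MulAut.conj x).toMonoidHom = MonoidHom.id X :=
    hom_eq_of_perfect hX hc (MonoidHom.ext hconj)
  have h2 : x * y * x⁻¹ = y := DFunLike.congr_fun h y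
  exact (mul_inv_eq_iff_eq_mul.1 h2).symm

end CfsgLib.SchurMult
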