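import Cfsg.Agent.SchurMult.Cover
import Cfsg.Agent.SchurMult.TwoGen

/-!
Stem extensions of dihedral groups.
-/

set_option autoImplicit false
open scoped commutatorElement

namespace CfsgLib.SchurMult

theorem dihedral_stem_bound (n : ℕ) [NeZero n] {Γ : Type*} [Group Γ] {σ : Γ →* DihedralGroup n}
    (hσ : Cfsg.IsStemExtension σ) :
    ∃ c : Γ, c ^ n = 1 ∧ σ.ker ≤ Subgroup.zpowers c ∧ ∀ k : ℤ, c ^ k ∈ σ.ker → (n : ℤ) ∣ 2 * k := by
  obtain ⟨a, ha⟩ := hσ.1 (DihedralGroup.r 1)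
  obtain ⟨b, hb⟩ := hσ.1 (DihedralGroup.sr 0)
  have hgen : Subgroup.closure ({σ a, σ b} : Set (DihedralGroup n)) = ⊤ := by
    rw [ha, hb, eq_top_iff]
    have hA : ∀ i : ZMod n, DihedralGroup.r i ∈
        Subgroup.closure ({DihedralGroup.r 1, DihedralGroup.sr 0} : Set (DihedralGroup n)) := by
      intro i
      rw [← ZMod.natCast_zmod_val i, ← DihedralGroup.r_one_pow]
      exact Subgroup.pow_mem _ (Subgroup.subset_closure (Set.mem_insert _ _)) _
    rintro (i | i) -
    · exact hA i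
    · have : DihedralGroup.sr i = DihedralGroup.sr 0 * DihedralGroup.r i := by simp
      rw [this]
      exact Subgroup.mul_mem _ (Subgroup.subset_closure (Set.mem_insert_of_mem _ (Set.mem_singleton _))) (hA i)
  have hn : b * a ^ n = a ^ n * b := by
    have hz : a ^ n ∈ Subgroup.center Γ := hσ.2.1 (by
      simp [MonoidHom.mem_ker, ha, DihedralGroup.one_def, -DihedralGroup.r_zero])
    exact Subgroup.mem_center_iff.1 hz b
  obtain ⟨c, hcn, hle, hσc⟩ := invert_central_bound hσ hgen (by rw [ha, hb]; simp) hn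
  refine ⟨c, hcn, hle, fun k hk => ?_⟩
  rw [MonoidHom.mem_ker, map_zpow, hσc, ha] at hk
  rw [← mul_inv_rev, ← pow_two, inv_zpow, inv_eq_one, ← zpow_natCast, ← zpow_mul,
    ← orderOf_dvd_iff_zpow_eq_one, DihedralGroup.orderOf_r_one] at hk
  exact hk

end CfsgLib.SchurMult
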