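import Cfsg.Agent.SchurMult.Cover

/-!
Lifting projective representations: splitting of central extensions with divisible kernel, and the
monomial projective representations attached to a linear character of a central kernel.
-/

set_option autoImplicit false
open scoped commutatorElement

namespace CfsgLib.SchurMult

universe u v w

section Divisible

variable {Q : Type u} [Group Q] [Finite Q]

/-- A stem extension with the largest kernel lifts into every central extension with divisible
kernel. -/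
theorem exists_lift_of_cover {Γ : Type v} [Group Γ] {σ : Γ →* Q} (hσ : Cfsg.IsStemExtension σ)
    (hcard : Nat.card (Mult Q) ≤ Nat.card σ.ker) {Δ : Type w} [Group Δ] {τ : Δ →* Q}
    (hs : Function.Surjective τ) (hc : τ.ker ≤ Subgroup.center Δ)
    (hdiv : ∀ k : ℕ, k ≠ 0 → ∀ z ∈ τ.ker, ∃ y ∈ τ.ker, y ^ k = z) :
    ∃ ρ : Γ →* Δ, τ.comp ρ = σ := by
  have hf := tautPres_surjective Q
  set f := tautPres Q
  obtain ⟨φ, hφ⟩ := exists_lift f hσ.1 hσ.2.1 (MonoidHom.id Q)
  obtain ⟨ψ, hψ⟩ := exists_lift f hs hc (MonoidHom.id Q)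
  rw [MonoidHom.id_comp] at hφ hψ
  have hm : (mult f).map φ = σ.ker := by
    rw [map_mult_eq f hf hσ.2.1 hφ]; exact inf_eq_left.2 hσ.2.2
  have hsurj : Function.Surjective φ := by
    intro d
    obtain ⟨x, hx⟩ := proj_surjective f hf (σ d)
    have hd : (φ x)⁻¹ * d ∈ σ.ker := by
      have h1 : σ (φ x) = σ d := (DFunLike.congr_fun hφ x).trans hx
      simp [MonoidHom.mem_ker, h1]
    rw [← hm] at hd
    obtain ⟨m, -, hm'⟩ := hd
    exact ⟨x * m, by rw [map_mul, hm', mul_inv_cancel_left]⟩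
  have hSker : φ.ker ≤ (proj f).ker := fun x hx => by
    show proj f x = 1
    rw [← hφ, MonoidHom.comp_apply, MonoidHom.mem_ker.1 hx, map_one]
  let a : mult f →* σ.ker := (multHom f φ).codRestrict _ fun x => hm ▸ Subgroup.mem_map_of_mem φ x.2
  have ha : Function.Surjective a := by
    rintro ⟨y, hy⟩
    rw [← hm] at hy
    obtain ⟨x, hx, rfl⟩ := hy
    exact ⟨⟨x, hx⟩, rfl⟩
  haveI : Finite σ.ker := Finite.of_surjective a ha
  haveI := Fintype.ofFinite (mult f)
  haveI := Fintype.ofFinite σ.ker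
  rw [Nat.card_eq_fintype_card, Nat.card_eq_fintype_card] at hcard
  have hainj : Function.Injective a := ((Fintype.bijective_iff_surjective_and_card a).2
    ⟨ha, le_antisymm hcard (Fintype.card_le_of_surjective a ha)⟩).1
  have hexp : ∀ x ∈ φ.ker, exps f x = 1 → x = 1 := by
    intro x hx he
    have hxm : x ∈ mult f := (mem_mult_iff f).2 ⟨hSker hx, he⟩
    have : (⟨x, hxm⟩ : mult f) = 1 := hainj (by rw [map_one]; exact Subtype.ext hx)
    exact congrArg Subtype.val this
  -- the kernel of `τ` as a divisible abelian group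
  haveI : IsMulCommutative τ.ker :=
    ⟨⟨fun x y => Subtype.ext (Subgroup.mem_center_iff.1 (hc y.2) x.1)⟩⟩
  letI : CommGroup τ.ker := { (inferInstance : Group τ.ker) with
    mul_comm := fun x y => IsMulCommutative.is_comm.comm x y }
  haveI : IsMulCommutative φ.ker :=
    ⟨⟨fun x y => Subtype.ext (Subgroup.mem_center_iff.1 (proj_ker_le_center f (hSker y.2)) x.1)⟩⟩
  letI : CommGroup φ.ker := { (inferInstance : Group φ.ker) with
    mul_comm := fun x y => IsMulCommutative.is_comm.comm x y }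
  letI : DivisibleBy (Additive τ.ker) ℕ := divisibleByOfSMulRightSurj _ _ (fun {k} hk z => by
    obtain ⟨y, hy, hyz⟩ := hdiv k hk (Additive.toMul z).1 (Additive.toMul z).2
    exact ⟨Additive.ofMul ⟨y, hy⟩, Additive.toMul.injective (Subtype.ext hyz)⟩)
  letI : DivisibleBy (Additive τ.ker) ℤ := AddGroup.divisibleByIntOfDivisibleByNat _
  let j : Additive φ.ker →+ (Q →₀ ℤ) :=
    { toFun := fun x => Multiplicative.toAdd (exps f ((Additive.toMul x : φ.ker) : FreeCentral f))
      map_zero' := by simp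
      map_add' := fun x y => by simp }
  have hj : Function.Injective j := by
    rw [injective_iff_map_eq_zero]
    intro x hx
    apply Additive.toMul.injective
    exact Subtype.ext (hexp _ (Additive.toMul x).2 hx)
  let hψk : Additive φ.ker →+ Additive τ.ker :=
    { toFun := fun x => Additive.ofMul ⟨ψ ((Additive.toMul x : φ.ker) : FreeCentral f),
        (DFunLike.congr_fun hψ _).trans (hSker (Additive.toMul x).2)⟩
      map_zero' := by
        apply Additive.toMul.injective; apply Subtype.ext; simp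
      map_add' := fun x y => by
        apply Additive.toMul.injective; apply Subtype.ext; simp }
  obtain ⟨h', hh'⟩ :=
    (Module.Baer.of_divisible (Additive τ.ker)).extension_property_addMonoidHom j hj hψk
  let χ : FreeCentral f →* τ.ker :=
    (AddMonoidHom.toMultiplicativeLeft h').comp (exps f)
  let ψ' : FreeCentral f →* Δ := MonoidHom.mk' (fun x => ψ x * ((χ x : τ.ker) : Δ)⁻¹) (fun x y => by
    have h1 := Subgroup.mem_center_iff.1 (hc (χ x).2)
    have h2 : ∀ z, z * ((χ x : τ.ker) : Δ)⁻¹ = ((χ x : τ.ker) : Δ)⁻¹ * z := fun z =>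
      (Commute.inv_right (h1 z)).eq
    rw [map_mul, map_mul, Subgroup.coe_mul, mul_inv_rev]
    calc ψ x * ψ y * (((χ y : τ.ker) : Δ)⁻¹ * ((χ x : τ.ker) : Δ)⁻¹)
        = ψ x * ((ψ y * ((χ y : τ.ker) : Δ)⁻¹) * ((χ x : τ.ker) : Δ)⁻¹) := by group
      _ = ψ x * (((χ x : τ.ker) : Δ)⁻¹ * (ψ y * ((χ y : τ.ker) : Δ)⁻¹)) := by rw [h2]
      _ = _ := (mul_assoc _ _ _).symm)
  have hkill : φ.ker ≤ ψ'.ker := by
    intro x hx
    show ψ x * ((χ x : τ.ker) : Δ)⁻¹ = 1
    have h2 := DFunLike.congr_fun hh' (Additive.ofMul ⟨x, hx⟩)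
    have h3 : ((χ x : τ.ker) : Δ) = ψ x := congrArg (fun z : Additive τ.ker => ((Additive.toMul z : τ.ker) : Δ)) h2
    rw [h3, mul_inv_cancel]
  refine ⟨φ.liftOfSurjective hsurj ⟨ψ', hkill⟩, ?_⟩
  ext g
  obtain ⟨x, rfl⟩ := hsurj g
  rw [MonoidHom.comp_apply]
  have h4 : φ.liftOfSurjective hsurj ⟨ψ', hkill⟩ (φ x) = ψ' x :=
    φ.liftOfRightInverse_comp_apply _ (Function.rightInverse_surjInv hsurj) ⟨ψ', hkill⟩ x
  rw [h4]
  show τ (ψ x * ((χ x : τ.ker) : Δ)⁻¹) = σ (φ x)
  rw [map_mul, map_inv, (χ x).2, inv_one, mul_one]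
  exact (DFunLike.congr_fun hψ x).trans (DFunLike.congr_fun hφ x).symm

end Divisible

section Monomial

variable {Δ : Type u} [Group Δ] {Q : Type v} [Group Q] [Finite Q] {τ : Δ →* Q}

/-- For a linear character of a central kernel there is a matrix representation on which the kernel
acts by that character, in scalars. -/
theorem exists_monomial_rep (hs : Function.Surjective τ) (hc : τ.ker ≤ Subgroup.center Δ)
    (χ : τ.ker →* ℂˣ) :
    ∃ (n : ℕ) (ρ : Δ →* GL (Fin n) ℂ), 0 < n ∧
      ∀ z : τ.ker, ((ρ z : GL (Fin n) ℂ) : Matrix (Fin n) (Fin n) ℂ) = (χ z : ℂ) • 1 := by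
  classical
  let e : Q ≃ Fin (Nat.card Q) := Finite.equivFin Q
  let s : Q → Δ := Function.surjInv hs
  have hss : ∀ q, τ (s q) = q := Function.surjInv_eq hs
  let κ : Δ → Q → τ.ker := fun d q => ⟨(s (τ d * q))⁻¹ * d * s q, by
    simp [MonoidHom.mem_ker, hss, mul_assoc]⟩
  let M : Δ → Matrix (Fin (Nat.card Q)) (Fin (Nat.card Q)) ℂ := fun d =>
    Matrix.of fun i j => if i = e (τ d * e.symm j) then ((χ (κ d (e.symm j)) : ℂˣ) : ℂ) else 0
  have hmul : ∀ d d', M (d * d') = M d * M d' := by
    intro d d'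
    ext i j
    rw [Matrix.mul_apply, Finset.sum_eq_single (e (τ d' * e.symm j))]
    · simp only [M, Matrix.of_apply, if_true, Equiv.symm_apply_apply, map_mul, mul_assoc]
      split
      · rw [← Units.val_mul, ← map_mul]
        congr 2
        apply Subtype.ext
        simp only [κ, Subgroup.coe_mul, map_mul, mul_assoc]
        group
      · simp
    · intro b _ hb
      simp [M, hb]
    · simp
  have hone : ∀ z : τ.ker, M z = (χ z : ℂ) • 1 := by
    intro z
    ext i j
    have hz : τ (z : Δ) = 1 := z.2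
    have hk : κ z (e.symm j) = z := by
      apply Subtype.ext
      show (s (τ (z : Δ) * e.symm j))⁻¹ * z * s (e.symm j) = z
      rw [hz, one_mul, mul_assoc, ← Subgroup.mem_center_iff.1 (hc z.2) (s (e.symm j)),
        inv_mul_cancel_left]
    simp [M, hz, hk, Matrix.smul_apply, Matrix.one_apply]
  let Mh : Δ →* Matrix (Fin (Nat.card Q)) (Fin (Nat.card Q)) ℂ :=
    { toFun := M
      map_one' := by
        have := hone 1
        simpa using this
      map_mul' := hmul }
  exact ⟨Nat.card Q, Mh.toHomUnits, Nat.card_pos, fun z => hone z⟩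

end Monomial

/-- Central elements of `GL n ℂ` have roots in the centre. -/
theorem exists_root_center (n k : ℕ) (hk : k ≠ 0) (z : GL (Fin n) ℂ)
    (hz : z ∈ Subgroup.center (GL (Fin n) ℂ)) :
    ∃ y ∈ Subgroup.center (GL (Fin n) ℂ), y ^ k = z := by
  rw [Matrix.GeneralLinearGroup.center_eq_range_scalar] at hz ⊢
  obtain ⟨r, rfl⟩ := hz
  obtain ⟨c, hc⟩ := IsAlgClosed.exists_pow_nat_eq (r : ℂ) (Nat.pos_of_ne_zero hk)
  have hc0 : c ≠ 0 := by rintro rfl; rw [zero_pow hk] at hc; exact r.ne_zero hc.symm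
  refine ⟨_, ⟨Units.mk0 c hc0, rfl⟩, ?_⟩
  rw [← map_pow]
  congr 1
  exact Units.ext (by simpa using hc)

end CfsgLib.SchurMult
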